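import Cfsg.Agent.Lib.BrauerPairs.AbelianInertial
import Cfsg.Agent.Lib.BrauerPairs.CoveringNormalizer
import Cfsg.Agent.S4642

/-!
# Maximal pairs over blocks of `D C_G(D)` and fusion of central elements
-/

set_option autoImplicit false
set_option linter.unusedSectionVars false
set_option linter.style.haveILetI false

namespace Cfsg.Agent.Lib.HeightBound

open Cfsg Cfsg.Agent.Lib Cfsg.Agent.Lib.Block Cfsg.Agent.Lib.BrauerPairs

universe u

variable {p : ℕ} {M : Ideal AlgInt} [M.IsPrime] {G : Type u} [Group G] [Finite G]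
  {B : Set (IrrCharacter G)}

/-- A conjugate of a block of a normalised subgroup, inside the group algebra. -/
theorem emb_bar_mapBlock {H : Subgroup G} {s : G} (hs : s ∈ Subgroup.normalizer (H : Set G))
    (b : Set (IrrCharacter H)) :
    emb H (bar M (mapBlock (normEquiv hs) b)) = cj s (emb H (bar M b)) := by
  refine alg_ext fun y => ?_
  rw [coeff_cj]
  by_cases hy : y ∈ H
  · have hy' := (Subgroup.mem_normalizer_iff''.1 hs y).1 hy
    rw [coeff_emb_of_mem _ _ hy, coeff_emb_of_mem _ _ hy',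
      ← coeff_bar_mapBlock (normEquiv hs) b ⟨_, hy'⟩]
    congr 1
    ext
    rw [coe_normEquiv]
    group
  · rw [coeff_emb_of_not_mem _ _ hy, coeff_emb_of_not_mem _ _
      (fun h => hy ((Subgroup.mem_normalizer_iff''.1 hs y).2 h))]

/-- A block of `D C_G(D)` inducing `B` lies under a maximal pair, whose stabiliser fixes it. -/
theorem exists_maximal_of_local (hM : IsPModular p M) (hB : IsPBlock M B) {D : Subgroup G}
    (hD : IsDefectGroup p M B D) {H : Subgroup G}
    (hH : H = D ⊔ Subgroup.centralizer (D : Set G)) {b : Set (IrrCharacter H)}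
    (hind : IsInducedBlock M H b B) :
    ∃ f : CBlock D, IsMaximalBrauerPair p M B D f ∧ ∀ s ∈ stab M D f,
      ∀ θ ∈ b, ∀ θ' : IrrCharacter H,
        (∀ h h' : H, (h' : G) = s * h * s⁻¹ → (θ' : H → ℂ) h' = (θ : H → ℂ) h) → θ' ∈ b := by
  classical
  haveI : Fact p.Prime := ⟨hM.1⟩
  haveI := resField_charP (M := M) hM
  obtain ⟨hDp, hDc, -⟩ := IsDefectGroup.props hM hB hD
  have hDH : D ≤ H := hH ▸ le_sup_left
  have hCH : Subgroup.centralizer (D : Set G) ≤ H := hH ▸ le_sup_right
  have hHN : H ≤ Subgroup.normalizer (D : Set G) :=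
    hH ▸ sup_le Subgroup.le_normalizer (centralizer_le_normalizer_self D)
  have hb : IsPBlock M b := hind.1
  have hbr := (induced_iff_br hM hDp hDH hCH hHN hb hB).1 hind
  -- the idempotent lives on `C_G(D)`
  haveI : (D.subgroupOf H).Normal := (Subgroup.normal_subgroupOf_iff_le_normalizer hDH).2 hHN
  have hbrb : br D (emb H (bar M b)) = emb H (bar M b) := by
    conv_lhs => rw [← Subgroup.map_subgroupOf_eq_of_le hDH]
    rw [br_emb, br_eq_self_of_normal (Q := D.subgroupOf H) hM hDp.comap_subtype (isClassCoeff_bar b)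
      (isIdempotentElem_bar hb)]
  have hfixH : ∀ u ∈ H, cj u (emb H (bar M b)) = emb H (bar M b) := fun u hu => by
    rw [show u = ((⟨u, hu⟩ : H) : G) from rfl, cj_emb,
      isClassCoeff_iff_cj.1 (isClassCoeff_bar b)]
  have hgood : Good D (emb H (bar M b)) :=
    ⟨fun u hu => hfixH u (hDH hu), fun c hc => hfixH c (hCH hc),
      by rw [IsIdempotentElem, ← map_mul, (isIdempotentElem_bar hb).eq]⟩
  have hne : br D (emb H (bar M b)) ≠ 0 := by
    rw [hbrb]
    exact fun h => bar_ne_zero hb (emb_injective H (h.trans (map_zero _).symm))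
  obtain ⟨f, hf, ho⟩ := exists_occ hM hDp hgood hne
  unfold Occ at ho
  rw [hbrb] at ho
  have hpair : IsBrauerPairOf p M B D f := by
    refine (isBrauerPairOf_iff hM).2 ⟨hDp, hf, hB, ?_⟩
    show pbar M D f * br D (bar M B) = pbar M D f
    rw [← ho, mul_assoc, hbr, ho]
  refine ⟨f, isMaximal_of_card hM hpair hDc, fun s hs θ hθ θ' hθ' => ?_⟩
  have hsH : s ∈ Subgroup.normalizer (H : Set G) := by
    refine Subgroup.mem_normalizer_iff_map_conj_eq.2 ?_
    show sj s H = H
    rw [hH, sj, Subgroup.map_sup]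
    congr 1
    · exact sj_eq_of_mem_normalizer hs.1
    · exact sj_eq_of_mem_normalizer (mem_normalizer_centralizer hs.1)
  have hb' : IsPBlock M (mapBlock (normEquiv hsH) b) := isPBlock_mapBlock _ hb
  have heq : mapBlock (normEquiv hsH) b = b := by
    by_contra hne'
    refine pbar_ne_zero hf ?_
    have h1 : pbar M D f * emb H (bar M (mapBlock (normEquiv hsH) b)) = pbar M D f := by
      have h2 := congrArg (cj s) ho
      rwa [map_mul, show cj s (pbar M D f) = pbar M D f from hs.2, ← emb_bar_mapBlock hsH] at h2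
    rw [← h1]
    conv_lhs => arg 1; rw [← ho]
    rw [mul_assoc, ← map_mul, bar_mul_bar_of_ne hb hb' (Ne.symm hne'), map_zero, mul_zero]
  rw [(isConjCharOf_iff hsH θ θ').1 hθ', ← heq]
  exact ⟨θ, hθ, rfl⟩

variable {P : Subgroup G} {e : CBlock P}

/-- Fusion between central subgroups is controlled by the stabiliser of the maximal pair. -/
theorem exists_stab_agree_of_central (hM : IsPModular p M)
    (hmax : IsMaximalBrauerPair p M B P e) {Q : Subgroup G} {f : CBlock Q}
    (hPQ : P ≤ Subgroup.centralizer (Q : Set G)) {g : G}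
    (hPQ' : P ≤ Subgroup.centralizer (sj g Q : Set G)) (hle : SubpairLE p M Q f P e)
    (hg : SubpairLE p M (sj g Q) (conjBlock Q g f) P e) :
    ∃ t ∈ stab M P e, ∀ u ∈ Q, t * u * t⁻¹ = g * u * g⁻¹ := by
  have hP : IsPGroup p P := hmax.1.1.1
  have hcb : IsPBlock M e := hmax.1.1.2
  have hQP : Q ≤ P := subgroup_le hle
  have hQ'P : sj g Q ≤ P := subgroup_le hg
  set F := pairSystem hM hP hcb
  have hF : IsBlockFusionSystemOn p M B P e F := isBlockFusionSystemOn_pairSystem hM hmax
  have hn : F.IsFullyNormalized (sj g Q) :=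
    ⟨hQ'P, fun R _ => Subgroup.card_le_of_le (inf_le_left.trans
      (le_inf le_rfl (hPQ'.trans (centralizer_le_normalizer_self _))))⟩
  have hs := (step_of_le hM hP hcb hle Relation.ReflTransGen.refl hQP
    (hPQ.trans (centralizer_le_normalizer_self Q))).conj g
  have hsP : sj g P ≤ (P ⊓ Subgroup.normalizer (sj g Q : Set G)) ⊔
      Subgroup.centralizer (sj g Q : Set G) := fun y hy => by
    refine Subgroup.mem_sup_right (mem_centralizer_sj.2 ?_)
    exact hPQ (mem_sj.1 hy)
  obtain ⟨d, hd, hdle⟩ := exists_centralizer_conj_pair hM hF hg hn hs hsP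
  have h1 := le_conj_conj hM hcb hdle
  refine ⟨d * g, ?_, fun u hu => ?_⟩
  · have heq : sj (d * g) P = P := Subgroup.eq_of_le_of_card_ge (subgroup_le h1)
      (by rw [sj, card_map_conj])
    obtain ⟨f1, hf1, he1⟩ := exists_pbar_of_eq heq.symm (isPBlock_conjBlock P (d * g) hcb)
    have h2 : SubpairLE p M P f1 P e := by
      rw [SubpairLE, ← idx_ext heq (isPBlock_conjBlock P (d * g) hcb) hf1 he1.symm]
      exact h1
    rw [le_unique hM hP hcb P _ _ h2 Relation.ReflTransGen.refl, pbar_conjBlock] at he1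
    exact ⟨Subgroup.mem_normalizer_iff_map_conj_eq.2 heq, he1.symm⟩
  · calc d * g * u * (d * g)⁻¹ = d * (g * u * g⁻¹) * d⁻¹ := by group
      _ = g * u * g⁻¹ := by
        rw [← Subgroup.mem_centralizer_iff.1 hd (g * u * g⁻¹) ⟨u, hu, rfl⟩, mul_inv_cancel_right]

/-- Over a central subgroup the block below a maximal pair induces `B` and keeps the defect. -/
theorem induced_defect_of_central (hM : IsPModular p M) (hmax : IsMaximalBrauerPair p M B P e)
    {Q : Subgroup G} {f : CBlock Q} (hPQ : P ≤ Subgroup.centralizer (Q : Set G))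
    (hle : SubpairLE p M Q f P e) :
    IsInducedBlock M (Subgroup.centralizer (Q : Set G)) f B ∧
      blockDefect p f = blockDefect p B := by
  have hP : IsPGroup p P := hmax.1.1.1
  have hcb : IsPBlock M e := hmax.1.1.2
  obtain ⟨hQ, hfb, hB, ho⟩ :=
    (isBrauerPairOf_iff hM).1 ((pairOf_iff_of_le hM hP hcb hle).2 hmax.1)
  have hcard := card_maximal hM hmax
  have hind := (Cfsg.Agent.S4642.induced_iff_occ hM hQ hB).2 ⟨hfb, ho⟩
  refine ⟨hind, le_antisymm ?_ ?_⟩
  · obtain ⟨D, hD⟩ := exists_isDefectGroup hM hfb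
    obtain ⟨E, hE, hle'⟩ := exists_defect_ge_of_induced hM hind hD
    refine (Nat.pow_le_pow_iff_right hM.1.two_le).1 ?_
    rw [← (IsDefectGroup.props hM hfb hD).2.1, ← (IsDefectGroup.props hM hB hE).2.1,
      Nat.card_congr (D.equivMapOfInjective _ (Subgroup.subtype_injective _)).toEquiv]
    exact Subgroup.card_le_of_le hle'
  · refine (Nat.pow_le_pow_iff_right hM.1.two_le).1 ?_
    rw [← hcard]
    refine le_trans ?_ (card_centralizer_le hM hP hcb hle)
    rw [inf_of_le_left hPQ]

end Cfsg.Agent.Lib.HeightBound
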