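import Cfsg.Agent.Lib.HeightBound.Contr
import Cfsg.Agent.Lib.HeightBound.Pairs
import Cfsg.Agent.Lib.Block.RankTwo

/-!
# Heights against the centre of a defect group
-/

set_option autoImplicit false
set_option linter.unusedSectionVars false
set_option linter.style.haveILetI false

namespace Cfsg.Agent.Lib.HeightBound

open Cfsg Cfsg.Agent.Lib Cfsg.Agent.Lib.Block Cfsg.Agent.Lib.BrauerPairs
open scoped ComplexConjugate

universe u

variable {p : ℕ} {M : Ideal AlgInt} [M.IsPrime] {G : Type u} [Group G] [Finite G]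

/-- The scaled degree is divisible by the height power. -/
theorem degUnit_div_mem (hM : IsPModular p M) {B : Set (IrrCharacter G)} (hB : IsPBlock M B)
    {d : ℕ} (hd : blockDefect p B = d) {χ : IrrCharacter G} (hχ : χ ∈ B) :
    degUnit p d χ / (p : ℂ) ^ blockHeight p B (χ : G → ℂ) ∈ locRing M := by
  haveI : Fact p.Prime := ⟨hM.1⟩
  obtain ⟨φ, hφ, h0⟩ := exists_height_zero hB p
  have hda := blockDefect_eq_of_min (p := p) hφ h0
  have hle := le_of_height_zero h0 hχ
  have hle' := factorization_charDegree_le φ p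
  set h := blockHeight p B (χ : G → ℂ) with hh
  have hheight : h = (charDegree (χ : G → ℂ)).factorization p -
      (charDegree (φ : G → ℂ)).factorization p := by
    have hinf : sInf ((fun ψ : IrrCharacter G => (charDegree (ψ : G → ℂ)).factorization p) '' B) =
        (charDegree (φ : G → ℂ)).factorization p :=
      le_antisymm (Nat.sInf_le ⟨φ, hφ, rfl⟩) (by rw [blockHeight] at h0; omega)
    rw [hh, blockHeight, hinf]
  have hpd : (p ^ d : ℕ) ≠ 0 := pow_ne_zero _ hM.1.ne_zero
  have hph : (p ^ h : ℕ) ≠ 0 := pow_ne_zero _ hM.1.ne_zero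
  have e : degUnit p d χ / (p : ℂ) ^ h =
      ((p ^ d * charDegree (χ : G → ℂ) : ℕ) : ℂ) / ((p ^ h * Nat.card G : ℕ) : ℂ) := by
    rw [degUnit, div_div]; push_cast; ring
  have hval : (p ^ d * charDegree (χ : G → ℂ)).factorization p =
      (p ^ h * Nat.card G).factorization p := by
    rw [Nat.factorization_mul hpd (charDegree_pos χ).ne', Nat.factorization_mul hph Nat.card_pos.ne',
      Finsupp.add_apply, Finsupp.add_apply, hM.1.factorization_pow, hM.1.factorization_pow,
      Finsupp.single_eq_same, Finsupp.single_eq_same]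
    omega
  rw [e]
  exact (natDiv_aux (M := M) hM (mul_ne_zero hpd (charDegree_pos χ).ne')
    (mul_ne_zero hph Nat.card_pos.ne') hval.ge).1

/-- The contribution of a subsection of full defect. -/
theorem major_facts (hM : IsPModular p M) {x : G} (hx : IsPElem p x) {C : Subgroup G}
    (hC : C = Subgroup.centralizer ({x} : Set G)) {b : Set (IrrCharacter C)}
    {B : Set (IrrCharacter G)} (hind : IsInducedBlock M C b B) {d : ℕ} (hd : blockDefect p b = d)
    (hBd : blockDefect p B = d) {χ : IrrCharacter G} (hχ : χ ∈ B) :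
    IsIntegral ℤ ((p : ℂ) ^ d * contr p χ x C b) ∧
      (p : ℂ) ^ d * contr p χ x C b / (p : ℂ) ^ blockHeight p B (χ : G → ℂ) ∈ locRing M ∧
      0 < (contr p χ x C b).re := by
  classical
  subst hC
  haveI : Fact p.Prime := ⟨hM.1⟩
  letI := Fintype.ofFinite G
  letI := Fintype.ofFinite (Subgroup.centralizer ({x} : Set G))
  obtain ⟨a, hac, haR, hkey⟩ := exists_contrib_omega hM hx hind d χ
  rw [contr_eq_section]
  refine ⟨(contrib_facts hM hx hind.1 hd χ χ).1, ?_, ?_⟩
  · rw [hkey, mul_div_right_comm]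
    exact mul_mem (degUnit_div_mem hM hind.2.1 hBd hχ) (omega_mem_locRing χ hac haR)
  · obtain ⟨ψ, hψ, hψ0⟩ := exists_height_zero hind.2.1 p
    obtain ⟨u, -, hu, he⟩ := exists_contrib_unit hM hx hind hd hBd hχ hψ hψ0
    have hne : sectionMap p x b (χ : G → ℂ) ≠ 0 := by
      intro h0
      rw [h0, Char.classInner_zero_left, mul_zero] at he
      refine mul_ne_zero ?_ ?_ he.symm
      · exact div_ne_zero (Nat.cast_ne_zero.2 (mul_ne_zero (pow_ne_zero _ hM.1.ne_zero)
          (charDegree_pos χ).ne')) (Char.card_ne_zero_complex G)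
      · exact fun h => hu (by rw [h, redC_zero])
    obtain ⟨c, hc⟩ := Function.ne_iff.1 hne
    rw [classInner, show (Nat.card (Subgroup.centralizer ({x} : Set G)) : ℂ)⁻¹ =
      ((Nat.card (Subgroup.centralizer ({x} : Set G)) : ℝ)⁻¹ : ℝ) by push_cast; ring,
      Complex.re_ofReal_mul, Complex.re_sum]
    refine mul_pos (inv_pos.2 (Nat.cast_pos.2 Nat.card_pos)) ?_
    refine Finset.sum_pos' (fun i _ => ?_) ⟨c, Finset.mem_univ _, ?_⟩ <;>
      rw [Complex.mul_conj, Complex.ofReal_re]
    · exact Complex.normSq_nonneg _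
    · exact Complex.normSq_pos.2 hc

/-- The subsections at one element. -/
theorem sum_blocks_re (hM : IsPModular p M) (χ : IrrCharacter G) (x : G) {C : Subgroup G}
    (hC : C = Subgroup.centralizer ({x} : Set G)) :
    ∑ b ∈ BrauerPairs.blocks M C, (contr p χ x C b).re =
      (Nat.card (Subgroup.centralizer ({x} : Set G)) : ℝ)⁻¹ *
        ∑ᶠ c : Subgroup.centralizer ({x} : Set G),
          (if p ∣ orderOf c then 0 else Complex.normSq ((χ : G → ℂ) (x * (c : G)))) := by
  classical
  subst hC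
  letI := Fintype.ofFinite (Subgroup.centralizer ({x} : Set G))
  rw [← Complex.re_sum, sum_blocks_contr hM χ x _ fun c hc =>
    (Subgroup.mem_centralizer_singleton_iff.1 hc).symm, finsum_eq_sum_of_fintype,
    show (Nat.card (Subgroup.centralizer ({x} : Set G)) : ℂ)⁻¹ =
      ((Nat.card (Subgroup.centralizer ({x} : Set G)) : ℝ)⁻¹ : ℝ) by push_cast; ring,
    Complex.re_ofReal_mul, Complex.re_sum]
  congr 1
  refine Finset.sum_congr rfl fun c _ => ?_
  split_ifs
  · rfl
  · rw [Complex.mul_conj, Complex.ofReal_re]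

variable {B : Set (IrrCharacter G)} {D : Subgroup G} {f : CBlock D}

/-- The contribution at a pair index. -/
noncomputable def wt (p : ℕ) (χ : IrrCharacter G) (z : G) (i : BrauerPairIdx G) : ℂ :=
  contr p χ z (Subgroup.centralizer (i.1 : Set G)) i.2

theorem wt_conj (χ : IrrCharacter G) (g z : G) (i : BrauerPairIdx G) :
    wt p χ (g * z * g⁻¹) (cIdx g i) = wt p χ z i := by
  show contr p χ (g * z * g⁻¹) (Subgroup.centralizer (sj g i.1 : Set G)) (conjBlock i.1 g i.2) = _
  rw [conjBlock_eq]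
  exact contr_map χ g z (centEquiv g i.1) (coe_centEquiv g i.1) i.2

set_option maxHeartbeats 1000000 in
/-- The centre of a defect group against the height. -/
theorem card_center_mul_le (hM : IsPModular p M) (hmax : IsMaximalBrauerPair p M B D f) {d : ℕ}
    (hd : Nat.card D = p ^ d) {H : Subgroup G}
    (hH : H ≤ Subgroup.centralizer (D ⊓ Subgroup.centralizer (D : Set G) : Set G))
    {χ : IrrCharacter G} (hχ : χ ∈ B) :
    Nat.card (D ⊓ Subgroup.centralizer (D : Set G) : Subgroup G) *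
      p ^ blockHeight p B (χ : G → ℂ) ≤ H.relIndex (stab M D f) * p ^ d := by
  classical
  haveI : Fact p.Prime := ⟨hM.1⟩
  letI := Fintype.ofFinite G
  have hDp : IsPGroup p D := hmax.1.1.1
  have hfb : IsPBlock M f := hmax.1.1.2
  have hB : IsPBlock M B := hmax.1.2.1
  have hBd : blockDefect p B = d :=
    Nat.pow_right_injective hM.1.two_le ((card_maximal hM hmax).symm.trans hd)
  set Z : Subgroup G := D ⊓ Subgroup.centralizer (D : Set G) with hZ
  set h := blockHeight p B (χ : G → ℂ) with hh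
  set Zf : Finset G := Finset.univ.filter (· ∈ Z) with hZf
  have hmemZ : ∀ z, z ∈ Zf ↔ z ∈ Z := fun z => by simp [hZf]
  have hcardZ : Zf.card = Nat.card Z := by
    rw [Nat.card_eq_fintype_card, Fintype.card_subtype]
  have hDC : ∀ z ∈ Z, D ≤ Subgroup.centralizer (Subgroup.zpowers z : Set G) := fun z hz w hw => by
    rw [KleinDefect.centralizer_zpowers, Subgroup.mem_centralizer_singleton_iff]
    exact Subgroup.mem_centralizer_iff.1 hz.2 w hw
  -- the pairs below the maximal pair
  have hex : ∀ z : G, ∃ i : BrauerPairIdx G, z ∈ Z → i.1 = Subgroup.zpowers z ∧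
      Relation.ReflTransGen (NormalSubpairRel p M) i ⟨D, f⟩ := by
    intro z
    by_cases hz : z ∈ Z
    · obtain ⟨g, -, hg⟩ := exists_le hM hDp hfb (Subgroup.zpowers z) (Subgroup.zpowers_le.2 hz.1)
      exact ⟨⟨_, g⟩, fun _ => ⟨rfl, hg⟩⟩
    · exact ⟨⟨D, f⟩, fun h' => absurd h' hz⟩
  choose F hF using hex
  have hfacts : ∀ z ∈ Z, IsPBlock M (F z).2 ∧
      IsIntegral ℤ ((p : ℂ) ^ d * wt p χ z (F z)) ∧
      (p : ℂ) ^ d * wt p χ z (F z) / (p : ℂ) ^ h ∈ locRing M ∧ 0 < (wt p χ z (F z)).re ∧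
      blockDefect p (F z).2 = d := by
    intro z hz
    obtain ⟨h1, h2⟩ := hF z hz
    have hPQ : D ≤ Subgroup.centralizer ((F z).1 : Set G) := by rw [h1]; exact hDC z hz
    obtain ⟨hind, hdef⟩ := induced_defect_of_central hM hmax hPQ h2
    obtain ⟨a1, a2, a3⟩ := major_facts hM (Block.isPElem_of_mem hDp hz.1)
      (by rw [h1, KleinDefect.centralizer_zpowers]) hind (hdef.trans hBd) hBd hχ
    exact ⟨hind.1, a1, a2, a3, hdef.trans hBd⟩
  -- the product is a positive rational integer
  let y : G → ℝ := fun z => (p : ℝ) ^ d * (wt p χ z (F z)).re / (p : ℝ) ^ h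
  have hy : ∀ z, (y z : ℂ) = (p : ℂ) ^ d * wt p χ z (F z) / (p : ℂ) ^ h := fun z => by
    simp only [y]
    push_cast
    rw [show ((wt p χ z (F z)).re : ℂ) = wt p χ z (F z) from (contr_im_re χ z _ _).2.symm]
  have hpR : (0 : ℝ) < p := Nat.cast_pos.2 hM.1.pos
  have hypos : ∀ z ∈ Zf, 0 < y z := fun z hz => by
    exact div_pos (mul_pos (pow_pos hpR _) (hfacts z ((hmemZ z).1 hz)).2.2.2.1) (pow_pos hpR _)
  have hprod : 1 ≤ ∏ z ∈ Zf, y z := by
    obtain ⟨m, hm⟩ := CharGalois.exists_int_of_fixed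
      (x := ∏ z ∈ Zf, (p : ℂ) ^ d * wt p χ z (F z))
      (IsIntegral.prod _ fun z hz => (hfacts z ((hmemZ z).1 hz)).2.1) fun σ => by
        obtain ⟨k, hk, hσ⟩ := CharGalois.exists_pow_of_aut (Nat.card_pos (α := G)) σ
        have hinj : Function.Injective fun g : G => g ^ k := CharGalois.pow_injective hk
        have himg : Zf.image (fun g => g ^ k) = Zf := by
          refine Finset.eq_of_subset_of_card_le (fun g hg => ?_)
            (by rw [Finset.card_image_of_injective _ hinj])
          obtain ⟨z, hz, rfl⟩ := Finset.mem_image.1 hg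
          exact (hmemZ _).2 (pow_mem ((hmemZ z).1 hz) k)
        rw [map_prod]
        conv_rhs => rw [← himg, Finset.prod_image fun a _ b _ e => hinj e]
        refine Finset.prod_congr rfl fun z hz => ?_
        have hzZ := (hmemZ z).1 hz
        have hidx : F (z ^ k) = F z := by
          obtain ⟨h1, h2⟩ := hF z hzZ
          obtain ⟨h3, h4⟩ := hF (z ^ k) (pow_mem hzZ k)
          refine idx_unique hM hDp hfb ?_ h4 h2
          rw [h1, h3, Char.zpowers_pow_coprime z hk]
        rw [hidx]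
        exact aut_contr hM (hfacts z hzZ).1 (hfacts z hzZ).2.2.2.2 χ (fun c hc => by
          rw [(hF z hzZ).1, KleinDefect.centralizer_zpowers] at hc
          exact (Subgroup.mem_centralizer_singleton_iff.1 hc).symm) hk hσ
    have he : ((∏ z ∈ Zf, y z : ℝ) : ℂ) = (m : ℂ) / (p : ℂ) ^ (h * Zf.card) := by
      rw [Complex.ofReal_prod, Finset.prod_congr rfl fun z _ => hy z, Finset.prod_div_distrib, hm,
        Finset.prod_const, ← pow_mul]
    obtain ⟨q, hq⟩ := dvd_of_div_pow_mem hM (h * Zf.card) (m := m) (by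
      rw [← he, Complex.ofReal_prod]
      exact prod_mem fun z hz => by rw [hy]; exact (hfacts z ((hmemZ z).1 hz)).2.2.1)
    have he' : (∏ z ∈ Zf, y z) = (q : ℝ) := by
      refine Complex.ofReal_injective ?_
      rw [he, hq]
      have : (p : ℂ) ≠ 0 := Nat.cast_ne_zero.2 hM.1.ne_zero
      push_cast
      field_simp
    have hpos : (0 : ℝ) < ∏ z ∈ Zf, y z := Finset.prod_pos hypos
    rw [he'] at hpos ⊢
    exact_mod_cast (Int.cast_pos.1 hpos : 0 < q)
  have hAM := CharGalois.card_le_sum_of_one_le_prod Zf y hypos hprod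
  -- the distinct subsections
  have hg : ∀ z : G, ∃ g : G, g * z * g⁻¹ = (ConjClasses.mk z).out := fun z =>
    isConj_iff.1 (ConjClasses.mk_eq_mk_iff_isConj.1 (Quotient.out_eq (ConjClasses.mk z)).symm)
  choose gz hgz using hg
  let Φ : G → G × BrauerPairIdx G := fun z => (gz z * z * (gz z)⁻¹, cIdx (gz z) (F z))
  have hfib : ∀ i : G × BrauerPairIdx G,
      (Zf.filter fun z => Φ z = i).card ≤ H.relIndex (stab M D f) := by
    intro i
    rcases (Zf.filter fun z => Φ z = i).eq_empty_or_nonempty with h0 | ⟨z, hz⟩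
    · rw [h0, Finset.card_empty]; exact Nat.zero_le _
    rw [Finset.mem_filter, hmemZ] at hz
    obtain ⟨hzZ, rfl⟩ := hz
    set T := stab M D f
    haveI := Fintype.ofFinite (T ⧸ H.subgroupOf T)
    let o : T ⧸ H.subgroupOf T → G := fun c =>
      (c.out : G) * z * (c.out : G)⁻¹
    have hle : (Zf.filter fun z' => Φ z' = Φ z) ⊆ Finset.univ.image o := by
      intro z' hz'
      rw [Finset.mem_filter, hmemZ] at hz'
      obtain ⟨hz'Z, he⟩ := hz'
      obtain ⟨he1, he2⟩ := Prod.mk.inj he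
      set t := (gz z')⁻¹ * gz z with ht
      have htz : t * z * t⁻¹ = z' := by
        rw [ht, show (gz z')⁻¹ * gz z * z * ((gz z')⁻¹ * gz z)⁻¹ =
          (gz z')⁻¹ * (gz z * z * (gz z)⁻¹) * gz z' by group, ← he1]
        group
      obtain ⟨h1, h2⟩ := hF z hzZ
      obtain ⟨h3, h4⟩ := hF z' hz'Z
      obtain ⟨hzb, -⟩ := hfacts z hzZ
      obtain ⟨hzb', -⟩ := hfacts z' hz'Z
      have hidx : cIdx t (F z) = F z' := by
        rw [ht, ← cIdx_cIdx (M := M) _ _ hzb, Sigma.eta, ← he2,
          show (F z') = ⟨(F z').1, (F z').2⟩ from rfl, cIdx_cIdx (M := M) _ _ hzb', inv_mul_cancel,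
          cIdx_one (M := M) hzb']
      have hfst : sj t (F z).1 = Subgroup.zpowers z' := (congrArg Sigma.fst hidx).trans h3
      obtain ⟨s, hs, hsz⟩ := exists_stab_agree_of_central hM hmax (Q := (F z).1) (f := (F z).2)
        (g := t) (by rw [h1]; exact hDC z hzZ) (by rw [hfst]; exact hDC z' hz'Z) h2 (by
          show Relation.ReflTransGen (NormalSubpairRel p M) (cIdx t (F z)) ⟨D, f⟩
          rw [hidx]
          exact h4)
      have hsz' := hsz z (by rw [h1]; exact Subgroup.mem_zpowers z)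
      rw [htz] at hsz'
      refine Finset.mem_image.2 ⟨QuotientGroup.mk ⟨s, hs⟩, Finset.mem_univ _, ?_⟩
      obtain ⟨w, hw⟩ := QuotientGroup.mk_out_eq_mul (H.subgroupOf T) ⟨s, hs⟩
      show (((QuotientGroup.mk ⟨s, hs⟩ : T ⧸ H.subgroupOf T).out : T) : G) * z * _ = z'
      rw [hw]
      have hwz : ((w : T) : G) * z = z * ((w : T) : G) :=
        (Subgroup.mem_centralizer_iff.1 (hH w.2) z hzZ).symm
      rw [← hsz', Subgroup.coe_mul, mul_assoc s, hwz]
      group
    refine (Finset.card_le_card hle).trans (Finset.card_image_le.trans ?_)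
    rw [Finset.card_univ, ← Nat.card_eq_fintype_card]
    rfl
  let V : G × BrauerPairIdx G → ℝ := fun i => (wt p χ i.1 i.2).re
  have hV0 : ∀ i, 0 ≤ V i := fun i => (contr_im_re χ _ _ _).1
  have hsum : ∑ z ∈ Zf, (wt p χ z (F z)).re ≤ (H.relIndex (stab M D f) : ℝ) := by
    rw [Finset.sum_congr rfl fun z _ => show (wt p χ z (F z)).re = V (Φ z) by
      simp only [V, Φ]; rw [wt_conj], Finset.sum_comp]
    refine le_trans (Finset.sum_le_sum (g := fun i => (H.relIndex (stab M D f) : ℝ) * V i)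
      fun i _ => ?_) ?_
    · rw [nsmul_eq_mul]
      exact mul_le_mul_of_nonneg_right (Nat.cast_le.2 (hfib i)) (hV0 i)
    rw [← Finset.mul_sum]
    refine mul_le_of_le_one_right (Nat.cast_nonneg _) ?_
    set X : Finset G := (Zf.image Φ).image Prod.fst with hX
    let E : G → Finset (G × BrauerPairIdx G) := fun x =>
      (BrauerPairs.blocks M (Subgroup.centralizer (Subgroup.zpowers x : Set G))).image
        fun b => (x, ⟨Subgroup.zpowers x, b⟩)
    have hsub : Zf.image Φ ⊆ X.biUnion E := by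
      intro i hi
      obtain ⟨z, hz, rfl⟩ := Finset.mem_image.1 hi
      rw [hmemZ] at hz
      have h1 : (cIdx (gz z) (F z)).1 = Subgroup.zpowers (gz z * z * (gz z)⁻¹) := by
        show sj (gz z) (F z).1 = _
        rw [(hF z hz).1, sj, MonoidHom.map_zpowers]
        rfl
      have h2 : IsPBlock M (cIdx (gz z) (F z)).2 := isPBlock_conjBlock _ _ (hfacts z hz).1
      refine Finset.mem_biUnion.2 ⟨_, Finset.mem_image.2 ⟨Φ z, hi, rfl⟩, ?_⟩
      show (gz z * z * (gz z)⁻¹, cIdx (gz z) (F z)) ∈ E (gz z * z * (gz z)⁻¹)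
      generalize cIdx (gz z) (F z) = j at h1 h2
      obtain ⟨Q, q⟩ := j
      dsimp only at h1 h2
      subst h1
      exact Finset.mem_image.2 ⟨q, BrauerPairs.mem_blocks.2 h2, rfl⟩
    refine (Finset.sum_le_sum_of_subset_of_nonneg hsub fun i _ _ => hV0 i).trans ?_
    rw [Finset.sum_biUnion fun x _ y _ hxy => Finset.disjoint_left.2 fun i hi hi' => by
      obtain ⟨b, -, rfl⟩ := Finset.mem_image.1 hi
      obtain ⟨b', -, he⟩ := Finset.mem_image.1 hi'
      exact hxy (Prod.mk.inj he).1.symm]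
    refine le_of_eq_of_le (Finset.sum_congr rfl fun x _ => ?_)
      (sum_sections_le hM χ X (fun x hx => ?_) fun x hx x' hx' hc => ?_)
    · dsimp only [E]
      rw [Finset.sum_image fun b _ b' _ he => eq_of_heq (Sigma.mk.inj (Prod.mk.inj he).2).2]
      exact sum_blocks_re hM χ x (KleinDefect.centralizer_zpowers x)
    · obtain ⟨i, hi, rfl⟩ := Finset.mem_image.1 hx
      obtain ⟨z, hz, rfl⟩ := Finset.mem_image.1 hi
      exact (Block.isPElem_of_mem hDp ((hmemZ z).1 hz).1).conj _
    · obtain ⟨i, hi, rfl⟩ := Finset.mem_image.1 hx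
      obtain ⟨z, -, rfl⟩ := Finset.mem_image.1 hi
      obtain ⟨i', hi', rfl⟩ := Finset.mem_image.1 hx'
      obtain ⟨z', -, rfl⟩ := Finset.mem_image.1 hi'
      show gz z * z * (gz z)⁻¹ = gz z' * z' * (gz z')⁻¹
      rw [hgz, hgz]
      refine congrArg Quotient.out (ConjClasses.mk_eq_mk_iff_isConj.2 ?_)
      exact ((isConj_iff.2 ⟨gz z, rfl⟩).trans hc).trans (isConj_iff.2 ⟨gz z', rfl⟩).symm
  have hfin : (Zf.card : ℝ) * (p : ℝ) ^ h ≤ (H.relIndex (stab M D f) : ℝ) * (p : ℝ) ^ d := by
    have hph : (0 : ℝ) < (p : ℝ) ^ h := pow_pos hpR _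
    rw [show ∑ z ∈ Zf, y z = (p : ℝ) ^ d * (∑ z ∈ Zf, (wt p χ z (F z)).re) / (p : ℝ) ^ h by
      simp only [y]; rw [Finset.mul_sum, Finset.sum_div], le_div_iff₀ hph] at hAM
    refine hAM.trans ?_
    rw [mul_comm (H.relIndex (stab M D f) : ℝ)]
    exact mul_le_mul_of_nonneg_left hsum (pow_nonneg hpR.le _)
  rw [← hcardZ]
  exact_mod_cast hfin

end Cfsg.Agent.Lib.HeightBound
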