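import Cfsg.Agent.Lib.MajorForm.Bound
import Cfsg.Agent.Lib.BrauerPairs.Conj

/-!
# Contributions of subsections to the norm of a character

The contribution of a subsection `(x, b)` to the norm of `χ`, its behaviour under automorphisms of
`ℂ` and under conjugation, and the bound on the sum over distinct subsections.
-/

set_option autoImplicit false
set_option linter.unusedSectionVars false
set_option linter.style.haveILetI false

namespace Cfsg.Agent.Lib.HeightBound

open Cfsg Cfsg.Agent.Lib Cfsg.Agent.Lib.Block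
open scoped ComplexConjugate

universe u

variable {p : ℕ} {M : Ideal AlgInt} [M.IsPrime] {G : Type u} [Group G] [Finite G]

open scoped Classical in
/-- The contribution of `(x, b)` to the norm of `χ`. -/
noncomputable def contr (p : ℕ) (χ : IrrCharacter G) (x : G) (C : Subgroup G)
    (b : Set (IrrCharacter C)) : ℂ :=
  haveI := Fintype.ofFinite C
  ∑ ξ : IrrCharacter C, ∑ η : IrrCharacter C,
    if ξ ∈ b ∧ η ∈ b then classInner (fun c : C => (χ : G → ℂ) (x * (c : G))) (ξ : C → ℂ) *
      conj (classInner (fun c : C => (χ : G → ℂ) (x * (c : G))) (η : C → ℂ)) *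
      regInner p (ξ : C → ℂ) (η : C → ℂ) else 0

theorem contr_congr {C C' : Subgroup G} (h : C = C') (χ : IrrCharacter G) (x : G)
    {b : Set (IrrCharacter C)} {b' : Set (IrrCharacter C')} (hb : HEq b b') :
    contr p χ x C b = contr p χ x C' b' := by
  subst h
  rw [eq_of_heq hb]

theorem contr_eq_section (χ : IrrCharacter G) (x : G)
    [Fintype (Subgroup.centralizer ({x} : Set G))]
    (b : Set (IrrCharacter (Subgroup.centralizer ({x} : Set G)))) :
    contr p χ x (Subgroup.centralizer ({x} : Set G)) b =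
      classInner (sectionMap p x b (χ : G → ℂ)) (sectionMap p x b (χ : G → ℂ)) := by
  classical
  rw [classInner_sectionMap]
  unfold contr secCoeff
  convert rfl

/-- The function whose truncated norm is the contribution. -/
theorem contr_eq_classInner (χ : IrrCharacter G) (x : G) (C : Subgroup G) [Fintype C]
    (b : Set (IrrCharacter C)) [DecidablePred (· ∈ b)] :
    contr p χ x C b = classInner
      (∑ ξ : IrrCharacter C, if ξ ∈ b then classInner (fun c : C => (χ : G → ℂ) (x * (c : G)))
        (ξ : C → ℂ) • pRegularPart p (ξ : C → ℂ) else 0)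
      (∑ ξ : IrrCharacter C, if ξ ∈ b then classInner (fun c : C => (χ : G → ℂ) (x * (c : G)))
        (ξ : C → ℂ) • pRegularPart p (ξ : C → ℂ) else 0) := by
  classical
  obtain rfl : ‹Fintype C› = Fintype.ofFinite C := Subsingleton.elim _ _
  letI := Fintype.ofFinite C
  rw [Char.classInner_sum_left]
  unfold contr
  simp only [Char.classInner_sum_right]
  convert Finset.sum_congr rfl fun ξ _ => Finset.sum_congr rfl fun η _ => ?_
  by_cases h1 : ξ ∈ b <;> by_cases h2 : η ∈ b <;>
    simp [h1, h2, Char.classInner_smul_left, Char.classInner_smul_right, Char.classInner_zero_left,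
      Char.classInner_zero_right, classInner_pRegularPart, mul_assoc] <;> ring

theorem contr_im_re (χ : IrrCharacter G) (x : G) (C : Subgroup G) (b : Set (IrrCharacter C)) :
    0 ≤ (contr p χ x C b).re ∧ contr p χ x C b = ((contr p χ x C b).re : ℂ) := by
  classical
  letI := Fintype.ofFinite C
  rw [contr_eq_classInner]
  refine ⟨MajorForm.classInner_self_re_nonneg _, ?_⟩
  exact (Complex.conj_eq_iff_re.1 (Char.classInner_conj_symm _ _).symm).symm

/-- An automorphism of `ℂ` raises the element of the subsection to a coprime power. -/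
theorem aut_contr (hM : IsPModular p M) {C : Subgroup G} {b : Set (IrrCharacter C)}
    (hb : IsPBlock M b) {d : ℕ} (hd : blockDefect p b = d) (χ : IrrCharacter G) {x : G}
    (hx : ∀ c ∈ C, x * c = c * x) {σ : ℂ ≃+* ℂ} {k : ℕ} (hk : Nat.Coprime k (Nat.card G))
    (hσ : ∀ μ : ℂ, μ ^ Nat.card G = 1 → σ μ = μ ^ k) :
    σ ((p : ℂ) ^ d * contr p χ x C b) = (p : ℂ) ^ d * contr p χ (x ^ k) C b := by
  classical
  letI := Fintype.ofFinite C
  have hkC : Nat.Coprime k (Nat.card C) :=
    Nat.Coprime.coprime_dvd_right (Subgroup.card_subgroup_dvd_card C) hk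
  have hσC : ∀ μ : ℂ, μ ^ Nat.card C = 1 → σ μ = μ ^ k := fun μ hμ => hσ μ (by
    obtain ⟨m, hm⟩ := Subgroup.card_subgroup_dvd_card C
    rw [hm, pow_mul, hμ, one_pow])
  have hχc := Char.isCharacter_of_isIrr χ.2
  have hχ : ∀ g, σ ((χ : G → ℂ) g) = (χ : G → ℂ) (g ^ k) := fun g =>
    CharGalois.aut_apply_char hσ hχc g
  have hξ : ∀ (ξ : IrrCharacter C) (c : C), σ ((ξ : C → ℂ) c) = (ξ : C → ℂ) (c ^ k) := fun ξ c =>
    CharGalois.aut_apply_char hσC (Char.isCharacter_of_isIrr ξ.2) c
  have hbij : Function.Bijective fun c : C => c ^ k :=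
    Finite.injective_iff_bijective.1 (CharGalois.pow_injective hkC)
  have hpow : ∀ c : C, (x * (c : G)) ^ k = x ^ k * ((c ^ k : C) : G) := fun c => by
    rw [(show Commute x (c : G) from hx c c.2).mul_pow, Subgroup.coe_pow]
  have hξinv : ∀ (ξ : IrrCharacter C) (c : C), σ (conj ((ξ : C → ℂ) c)) =
      conj ((ξ : C → ℂ) (c ^ k)) := fun ξ c => by
    rw [← Char.char_inv (Char.isCharacter_of_isIrr ξ.2), hξ, inv_pow,
      Char.char_inv (Char.isCharacter_of_isIrr ξ.2)]
  have hinner : ∀ ξ : IrrCharacter C,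
      σ (classInner (fun c : C => (χ : G → ℂ) (x * (c : G))) (ξ : C → ℂ)) =
        classInner (fun c : C => (χ : G → ℂ) (x ^ k * (c : G))) (ξ : C → ℂ) := by
    intro ξ
    simp only [classInner, map_mul, map_inv₀, map_natCast, map_sum]
    congr 1
    refine Fintype.sum_bijective _ hbij _ _ fun c => ?_
    rw [hχ, hpow, hξinv]
  have hinner' : ∀ ξ : IrrCharacter C,
      σ (conj (classInner (fun c : C => (χ : G → ℂ) (x * (c : G))) (ξ : C → ℂ))) =
        conj (classInner (fun c : C => (χ : G → ℂ) (x ^ k * (c : G))) (ξ : C → ℂ)) := by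
    intro ξ
    simp only [classInner, map_mul, map_inv₀, map_natCast, map_sum, Complex.conj_conj]
    congr 1
    refine Fintype.sum_bijective _ hbij _ _ fun c => ?_
    rw [hξ, ← Char.char_inv hχc, hχ, inv_pow, hpow, Char.char_inv hχc]
  simp only [contr, Finset.mul_sum, map_sum]
  refine Finset.sum_congr rfl fun ξ _ => Finset.sum_congr rfl fun η _ => ?_
  by_cases h : ξ ∈ b ∧ η ∈ b
  · obtain ⟨z, hz⟩ := exists_int_regInner hM hb hd (η := η) h.1
    rw [if_pos h, if_pos h, mul_left_comm, hz, map_mul, map_mul, hinner, hinner', map_intCast, ← hz]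
    ring
  · rw [if_neg h, if_neg h, mul_zero, map_zero]

/-- Conjugation does not change contributions. -/
theorem contr_map (χ : IrrCharacter G) (g x : G) {C C' : Subgroup G} (φ : C ≃* C')
    (hφ : ∀ c : C, ((φ c : C') : G) = g * (c : G) * g⁻¹) (b : Set (IrrCharacter C)) :
    contr p χ (g * x * g⁻¹) C' (BrauerPairs.mapBlock φ b) = contr p χ x C b := by
  classical
  letI := Fintype.ofFinite C
  letI := Fintype.ofFinite C'
  have hcard : Nat.card C' = Nat.card C := (Nat.card_congr φ.toEquiv).symm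
  have hI : ∀ ξ : IrrCharacter C, classInner (fun c : C' => (χ : G → ℂ) (g * x * g⁻¹ * (c : G)))
      (BrauerPairs.mapIrr φ ξ : C' → ℂ) =
        classInner (fun c : C => (χ : G → ℂ) (x * (c : G))) (ξ : C → ℂ) := by
    intro ξ
    simp only [classInner, hcard]
    congr 1
    refine (Fintype.sum_equiv φ.toEquiv _ _ fun c => ?_).symm
    rw [MulEquiv.toEquiv_eq_coe, MulEquiv.coe_toEquiv, BrauerPairs.mapIrr_apply, hφ,
      show g * x * g⁻¹ * (g * (c : G) * g⁻¹) = g * (x * (c : G)) * g⁻¹ by group,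
      Char.isClassFunction_of_isIrr χ.2]
  have hR : ∀ ξ η : IrrCharacter C, regInner p (BrauerPairs.mapIrr φ ξ : C' → ℂ)
      (BrauerPairs.mapIrr φ η : C' → ℂ) = regInner p (ξ : C → ℂ) (η : C → ℂ) := by
    intro ξ η
    simp only [regInner, classInner, hcard]
    congr 1
    refine (Fintype.sum_equiv φ.toEquiv _ _ fun c => ?_).symm
    rw [MulEquiv.toEquiv_eq_coe, MulEquiv.coe_toEquiv, BrauerPairs.mapIrr_apply,
      BrauerPairs.mapIrr_apply, φ.orderOf_eq]
  have hbij : Function.Bijective (BrauerPairs.mapIrr φ) :=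
    ⟨BrauerPairs.mapIrr_injective φ,
      fun ξ => ⟨BrauerPairs.mapIrr φ.symm ξ, BrauerPairs.mapIrr_symm_mapIrr φ.symm ξ⟩⟩
  have hmem : ∀ ξ, BrauerPairs.mapIrr φ ξ ∈ BrauerPairs.mapBlock φ b ↔ ξ ∈ b := fun ξ =>
    (BrauerPairs.mapIrr_injective φ).mem_set_image
  unfold contr
  symm
  refine Fintype.sum_bijective _ hbij _ _ fun ξ => Fintype.sum_bijective _ hbij _ _ fun η => ?_
  simp only [hmem, hI, hR]

/-- All subsections at one element. -/
theorem sum_blocks_contr (hM : IsPModular p M) (χ : IrrCharacter G) (x : G) (C : Subgroup G)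
    [Fintype C] (hCx : ∀ c ∈ C, x * c = c * x) :
    ∑ b ∈ BrauerPairs.blocks M C, contr p χ x C b =
      (Nat.card C : ℂ)⁻¹ * ∑ c : C, if p ∣ orderOf c then 0 else
        (χ : G → ℂ) (x * (c : G)) * conj ((χ : G → ℂ) (x * (c : G))) := by
  classical
  set F : C → ℂ := fun c => (χ : G → ℂ) (x * (c : G)) with hF
  have hFc : IsClassFunction C F := fun c h => by
    simp only [hF, Subgroup.coe_mul, Subgroup.coe_inv]
    rw [show x * ((h : G) * (c : G) * (h : G)⁻¹) = (x * (h : G)) * (c : G) * (h : G)⁻¹ by group,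
      hCx h h.2, show (h : G) * x * (c : G) * (h : G)⁻¹ = (h : G) * (x * (c : G)) * (h : G)⁻¹ by
        group, Char.isClassFunction_of_isIrr χ.2]
  have h1 : (Nat.card C : ℂ)⁻¹ * ∑ c : C, (if p ∣ orderOf c then 0 else F c * conj (F c)) =
      regInner p F F := by
    simp only [regInner, classInner]
    congr 1
    exact Finset.sum_congr rfl fun c _ => by split_ifs <;> simp
  rw [h1]
  have hexp := Char.eq_sum_classInner_smul hFc
  have h2 : regInner p F F = ∑ ξ : IrrCharacter C, ∑ η : IrrCharacter C,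
      classInner F (ξ : C → ℂ) * conj (classInner F (η : C → ℂ)) *
        regInner p (ξ : C → ℂ) (η : C → ℂ) := by
    have hr : pRegularPart p F = ∑ ξ : IrrCharacter C, classInner F (ξ : C → ℂ) •
        pRegularPart p (ξ : C → ℂ) := by
      funext c
      simp only [Finset.sum_apply, Pi.smul_apply, smul_eq_mul, pRegularPart_apply]
      split_ifs
      · simp
      · conv_lhs => rw [hexp]
        simp [Finset.sum_apply]
    rw [← classInner_pRegularPart, hr, Char.classInner_sum_left]
    refine Finset.sum_congr rfl fun ξ _ => ?_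
    rw [Char.classInner_sum_right]
    refine Finset.sum_congr rfl fun η _ => ?_
    rw [Char.classInner_smul_left, Char.classInner_smul_right, classInner_pRegularPart, mul_assoc]
  rw [h2]
  unfold contr
  rw [Finset.sum_comm]
  refine Finset.sum_congr (by ext; simp) fun ξ _ => ?_
  rw [Finset.sum_comm]
  refine Finset.sum_congr (by ext; simp) fun η _ => ?_
  have hblk := isPBlock_blockOf (M := M) ξ
  rw [Finset.sum_eq_single (blockOf M (ξ : C → ℂ))]
  · by_cases hη : η ∈ blockOf M (ξ : C → ℂ)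
    · rw [if_pos ⟨mem_blockOf_self ξ, hη⟩]
      simp only [hF]
      convert rfl
    · rw [if_neg fun h => hη h.2, regInner_eq_zero hM fun hs => hη hs, mul_zero]
  · intro b hb hne
    exact if_neg fun h => hne (blockOf_eq_of_mem (BrauerPairs.mem_blocks.1 hb) h.1)
  · intro h; exact absurd (BrauerPairs.mem_blocks.2 hblk) h

open scoped Classical in
/-- The `p`-section of `x`. -/
noncomputable def pSection (p : ℕ) [Fintype G] (x : G) : Finset G :=
  Finset.univ.filter fun g => ∃ (u : G) (c : Subgroup.centralizer ({x} : Set G)),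
    ¬ p ∣ orderOf c ∧ u * (x * (c : G)) * u⁻¹ = g

omit [Finite G] in
theorem mem_pSection [Fintype G] {x g : G} : g ∈ pSection p x ↔
    ∃ (u : G) (c : Subgroup.centralizer ({x} : Set G)),
      ¬ p ∣ orderOf c ∧ u * (x * (c : G)) * u⁻¹ = g := by
  simp [pSection]

set_option maxHeartbeats 1000000 in
/-- The norm on one `p`-section. -/
theorem sum_pSection [Fintype G] (χ : IrrCharacter G) {x : G} (hx : IsPElem p x)
    [Fact p.Prime] :
    (Nat.card (Subgroup.centralizer ({x} : Set G)) : ℝ)⁻¹ *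
      ∑ᶠ c : Subgroup.centralizer ({x} : Set G),
        (if p ∣ orderOf c then 0 else Complex.normSq ((χ : G → ℂ) (x * (c : G)))) =
      (Nat.card G : ℝ)⁻¹ * ∑ g ∈ pSection p x, Complex.normSq ((χ : G → ℂ) g) := by
  classical
  letI := Fintype.ofFinite (Subgroup.centralizer ({x} : Set G))
  rw [finsum_eq_sum_of_fintype]
  let R := Finset.univ.filter fun c : Subgroup.centralizer ({x} : Set G) => ¬ p ∣ orderOf c
  let f : G × Subgroup.centralizer ({x} : Set G) → G := fun q => q.1 * (x * (q.2 : G)) * q.1⁻¹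
  have hfib : ∀ g ∈ pSection p x, (((Finset.univ : Finset G) ×ˢ R).filter fun q => f q = g).card =
      Nat.card (Subgroup.centralizer ({x} : Set G)) := by
    intro g hg
    obtain ⟨u, c, hc, rfl⟩ := mem_pSection.1 hg
    rw [Nat.card_eq_fintype_card, ← Finset.card_univ]
    symm
    refine Finset.card_bij (fun h _ => ((u * (h : G)), h⁻¹ * c * h)) (fun h _ => ?_)
      (fun h _ h' _ e => Subtype.ext (mul_left_cancel (Prod.mk.inj e).1)) fun q hq => ?_
    · refine Finset.mem_filter.2 ⟨Finset.mem_product.2 ⟨Finset.mem_univ _,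
        Finset.mem_filter.2 ⟨Finset.mem_univ _, ?_⟩⟩, ?_⟩
      · have : orderOf (h⁻¹ * c * h) = orderOf c := by
          conv_lhs => rw [show h⁻¹ * c * h = h⁻¹ * c * h⁻¹⁻¹ by rw [inv_inv]]
          exact orderOf_conj_eq _ _
        rwa [this]
      · show u * (h : G) * (x * ((h⁻¹ * c * h : Subgroup.centralizer ({x} : Set G)) : G)) *
          (u * (h : G))⁻¹ = u * (x * (c : G)) * u⁻¹
        rw [Subgroup.coe_mul, Subgroup.coe_mul, Subgroup.coe_inv,
          show u * (h : G) * (x * ((h : G)⁻¹ * (c : G) * (h : G))) * (u * (h : G))⁻¹ =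
            u * ((h : G) * x) * (h : G)⁻¹ * (c : G) * u⁻¹ by group,
          Subgroup.mem_centralizer_singleton_iff.1 h.2]
        group
    · obtain ⟨⟨v, c'⟩, hq', he⟩ : ∃ q', q' ∈ ((Finset.univ : Finset G) ×ˢ R) ∧ q' = q :=
        ⟨q, (Finset.mem_filter.1 hq).1, rfl⟩
      subst he
      have hc' : ¬ p ∣ orderOf c' := (Finset.mem_filter.1 (Finset.mem_product.1 hq').2).2
      have hf' : v * (x * (c' : G)) * v⁻¹ = u * (x * (c : G)) * u⁻¹ := (Finset.mem_filter.1 hq).2
      have hconj : (u⁻¹ * v) * (x * (c' : G)) * (u⁻¹ * v)⁻¹ = x * (c : G) := by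
        rw [show (u⁻¹ * v) * (x * (c' : G)) * (u⁻¹ * v)⁻¹ =
          u⁻¹ * (v * (x * (c' : G)) * v⁻¹) * u by group, hf']
        group
      have h1 := IsPPart.conj (isPPart_mul hx
        (show ¬ p ∣ orderOf (c' : G) by rwa [Subgroup.orderOf_coe])
        (Subgroup.mem_centralizer_singleton_iff.1 c'.2).symm) (u⁻¹ * v)
      rw [hconj] at h1
      have h2 := isPPart_mul hx (show ¬ p ∣ orderOf (c : G) by rwa [Subgroup.orderOf_coe])
        (Subgroup.mem_centralizer_singleton_iff.1 c.2).symm
      have hh : (u⁻¹ * v) * x * (u⁻¹ * v)⁻¹ = x := IsPPart.unique h1 h2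
      refine ⟨⟨u⁻¹ * v, Subgroup.mem_centralizer_singleton_iff.2
        (mul_inv_eq_iff_eq_mul.1 hh)⟩, Finset.mem_univ _, Prod.ext (mul_inv_cancel_left u v) ?_⟩
      apply Subtype.ext
      simp only [Subgroup.coe_mul, Subgroup.coe_inv]
      have hcc : (u⁻¹ * v) * (c' : G) * (u⁻¹ * v)⁻¹ = (c : G) := by
        refine mul_left_cancel (a := x) ?_
        rw [← hconj]
        conv_lhs => arg 1; rw [← hh]
        group
      rw [← hcc]
      group
  have hsum : ∑ q ∈ (Finset.univ : Finset G) ×ˢ R, Complex.normSq ((χ : G → ℂ) (f q)) =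
      (Nat.card (Subgroup.centralizer ({x} : Set G)) : ℝ) *
        ∑ g ∈ pSection p x, Complex.normSq ((χ : G → ℂ) g) := by
    rw [← Finset.sum_fiberwise_of_maps_to (t := pSection p x) (g := f) (fun q hq => mem_pSection.2
      ⟨q.1, q.2, (Finset.mem_filter.1 (Finset.mem_product.1 hq).2).2, rfl⟩),
      Finset.mul_sum]
    refine Finset.sum_congr rfl fun g hg => ?_
    rw [Finset.sum_congr rfl fun q hq => show Complex.normSq ((χ : G → ℂ) (f q)) =
      Complex.normSq ((χ : G → ℂ) g) by rw [(Finset.mem_filter.1 hq).2], Finset.sum_const,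
      hfib g hg, nsmul_eq_mul]
  have hleft : ∑ q ∈ (Finset.univ : Finset G) ×ˢ R, Complex.normSq ((χ : G → ℂ) (f q)) =
      (Nat.card G : ℝ) * ∑ c : Subgroup.centralizer ({x} : Set G),
        (if p ∣ orderOf c then 0 else Complex.normSq ((χ : G → ℂ) (x * (c : G)))) := by
    rw [Finset.sum_product, Finset.sum_congr rfl fun v _ => show
      (∑ c ∈ R, Complex.normSq ((χ : G → ℂ) (f (v, c)))) =
        ∑ c ∈ R, Complex.normSq ((χ : G → ℂ) (x * (c : G))) from Finset.sum_congr rfl fun c _ => by
          rw [Char.isClassFunction_of_isIrr χ.2],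
      Finset.sum_const, Finset.card_univ, nsmul_eq_mul, Nat.card_eq_fintype_card,
      Finset.sum_filter]
    congr 1
    exact Finset.sum_congr rfl fun c _ => by simp [ite_not]
  have hG0 : (Nat.card G : ℝ) ≠ 0 := Nat.cast_ne_zero.2 Nat.card_pos.ne'
  have hC0 : (Nat.card (Subgroup.centralizer ({x} : Set G)) : ℝ) ≠ 0 :=
    Nat.cast_ne_zero.2 Nat.card_pos.ne'
  rw [hleft] at hsum
  field_simp
  linarith

/-- Distinct `p`-sections fill at most the whole norm. -/
theorem sum_sections_le [Fintype G] (hM : IsPModular p M) (χ : IrrCharacter G) (X : Finset G)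
    (hXp : ∀ x ∈ X, IsPElem p x) (hX : ∀ x ∈ X, ∀ y ∈ X, IsConj x y → x = y) :
    ∑ x ∈ X, (Nat.card (Subgroup.centralizer ({x} : Set G)) : ℝ)⁻¹ *
      ∑ᶠ c : Subgroup.centralizer ({x} : Set G),
        (if p ∣ orderOf c then 0 else Complex.normSq ((χ : G → ℂ) (x * (c : G)))) ≤ 1 := by
  classical
  haveI : Fact p.Prime := ⟨hM.1⟩
  rw [Finset.sum_congr rfl fun x hx => sum_pSection χ (hXp x hx), ← Finset.mul_sum]
  have hdisj : (X : Set G).PairwiseDisjoint (pSection p) := by
    intro x hx y hy hne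
    refine Finset.disjoint_left.2 fun g hg hg' => hne (hX x hx y hy ?_)
    obtain ⟨u, c, hc, rfl⟩ := mem_pSection.1 hg
    obtain ⟨v, c', hc', he⟩ := mem_pSection.1 hg'
    have h1 := IsPPart.conj (isPPart_mul (hXp x hx)
      (show ¬ p ∣ orderOf (c : G) by rwa [Subgroup.orderOf_coe])
      (Subgroup.mem_centralizer_singleton_iff.1 c.2).symm) u
    have h2 := IsPPart.conj (isPPart_mul (hXp y hy)
      (show ¬ p ∣ orderOf (c' : G) by rwa [Subgroup.orderOf_coe])
      (Subgroup.mem_centralizer_singleton_iff.1 c'.2).symm) v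
    rw [he] at h2
    exact (isConj_iff.2 ⟨u, rfl⟩).trans ((isConj_iff.2 ⟨v, (IsPPart.unique h2 h1)⟩).symm)
  rw [← Finset.sum_biUnion hdisj]
  have htot : (Nat.card G : ℝ)⁻¹ * ∑ g : G, Complex.normSq ((χ : G → ℂ) g) = 1 := by
    refine Complex.ofReal_injective ?_
    push_cast
    rw [← Char.classInner_irr_self χ.2, classInner]
    congr 1
    exact Finset.sum_congr rfl fun g _ => (Complex.mul_conj _).symm
  rw [← htot]
  refine mul_le_mul_of_nonneg_left ?_ (inv_nonneg.2 (Nat.cast_nonneg _))
  exact Finset.sum_le_sum_of_subset_of_nonneg (Finset.subset_univ _)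
    fun g _ _ => Complex.normSq_nonneg _

end Cfsg.Agent.Lib.HeightBound
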